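import Cfsg.Agent.Lib.Trans.Ito
import Cfsg.Agent.Lib.Lead.CardMul
import Cfsg.Agent.Lib.Solv.HallConv

set_option autoImplicit false
set_option linter.unusedSectionVars false
set_option linter.style.haveILetI false
set_option linter.unusedSimpArgs false
set_option linter.unusedVariables false

open Pointwise
open scoped commutatorElement

namespace CfsgLib.SS

open Subgroup Cfsg CfsgLib.Solv CfsgLib.Trans

universe u

section
variable {G : Type*} [Group G] [Finite G]

/-- `|G| |H ∩ K| = |H| |K|` for a factorization -/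
theorem card_factorization (H K : Subgroup G) (hHK : ∀ g : G, ∃ h ∈ H, ∃ k ∈ K, g = h * k) :
    Nat.card G * Nat.card (H ⊓ K : Subgroup G) = Nat.card H * Nat.card K := by
  have h1 := CfsgLib.Lead.card_mul_card_eq_card_mul_mul_card_inf H K
  have h2 : ((H : Set G) * (K : Set G) : Set G) = Set.univ := by
    ext g
    simp only [Set.mem_univ, iff_true]
    obtain ⟨h, hh, k, hk, rfl⟩ := hHK g
    exact Set.mul_mem_mul hh hk
  rw [h2, Nat.card_coe_set_eq, Set.ncard_univ] at h1
  exact h1.symm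

/-- S0560 -/
theorem factorization_sylow_product (H K : Subgroup G) (hHK : ∀ g : G, ∃ h ∈ H, ∃ k ∈ K, g = h * k)
    (p : ℕ) [hp : Fact p.Prime] :
    ∃ (P : Sylow p H) (Q : Sylow p K) (R : Sylow p G), ((R : Subgroup G) : Set G) =
      (((P : Subgroup H).map H.subtype : Subgroup G) : Set G) * (((Q : Subgroup K).map K.subtype : Subgroup G) : Set G) := by
  let H₀ : Sylow p H := default
  let K₀ : Sylow p K := default
  have hH₀ : IsPGroup p ((H₀ : Subgroup H).map H.subtype) := H₀.2.map _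
  have hK₀ : IsPGroup p ((K₀ : Subgroup K).map K.subtype) := K₀.2.map _
  obtain ⟨R₁, hR₁⟩ := hH₀.exists_le_sylow
  obtain ⟨R₂, hR₂⟩ := hK₀.exists_le_sylow
  obtain ⟨g, hg⟩ := MulAction.exists_smul_eq G R₁ R₂
  obtain ⟨h', hh', k', hk', he⟩ := hHK g⁻¹
  set h := h'⁻¹ with hh
  set k := k'⁻¹ with hk
  have hhH : h ∈ H := H.inv_mem hh'
  have hkK : k ∈ K := K.inv_mem hk'
  have hgkh : g = k * h := by
    have : g = (g⁻¹)⁻¹ := by group
    rw [this, he, mul_inv_rev]
  -- R = h • R₁ = k⁻¹ • R₂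
  set R : Sylow p G := h • R₁ with hR
  have hRR₂ : R = k⁻¹ • R₂ := by
    rw [hR, ← hg, hgkh, mul_smul, inv_smul_smul]
  let P : Sylow p H := (⟨h, hhH⟩ : H) • H₀
  let Q : Sylow p K := (⟨k⁻¹, K.inv_mem hkK⟩ : K) • K₀
  have hPR : (P : Subgroup H).map H.subtype ≤ (R : Subgroup G) := by
    rintro _ ⟨x, hx, rfl⟩
    have hx1 : x ∈ MulAut.conj (⟨h, hhH⟩ : H) • (H₀ : Subgroup H) := by
      rw [← Sylow.coe_subgroup_smul]; exact hx
    rw [mem_conj_smul] at hx1
    rw [hR, Sylow.coe_subgroup_smul, mem_conj_smul]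
    exact hR₁ ⟨_, hx1, rfl⟩
  have hQR : (Q : Subgroup K).map K.subtype ≤ (R : Subgroup G) := by
    rintro _ ⟨x, hx, rfl⟩
    have hx1 : x ∈ MulAut.conj (⟨k⁻¹, K.inv_mem hkK⟩ : K) • (K₀ : Subgroup K) := by
      rw [← Sylow.coe_subgroup_smul]; exact hx
    rw [mem_conj_smul] at hx1
    rw [hRR₂, Sylow.coe_subgroup_smul, mem_conj_smul]
    exact hR₂ ⟨_, hx1, rfl⟩
  refine ⟨P, Q, R, ?_⟩
  set P' := (P : Subgroup H).map H.subtype with hP'
  set Q' := (Q : Subgroup K).map K.subtype with hQ'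
  have hsub : ((P' : Set G) * (Q' : Set G) : Set G) ⊆ (R : Subgroup G) := by
    rintro _ ⟨a, ha, b, hb, rfl⟩
    exact (R : Subgroup G).mul_mem (hPR ha) (hQR hb)
  -- the cardinalities
  have hformula := CfsgLib.Lead.card_mul_card_eq_card_mul_mul_card_inf P' Q'
  have hfac := card_factorization H K hHK
  have hcP : Nat.card P' = Nat.card (P : Subgroup H) := Subgroup.card_map_of_injective H.subtype_injective
  have hcQ : Nat.card Q' = Nat.card (Q : Subgroup K) := Subgroup.card_map_of_injective K.subtype_injective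
  -- P' ⊓ Q' ≤ H ⊓ K
  have hPQ : P' ⊓ Q' ≤ H ⊓ K := inf_le_inf (Subgroup.map_subtype_le _) (Subgroup.map_subtype_le _)
  obtain ⟨d, hd⟩ : Nat.card (P' ⊓ Q' : Subgroup G) ∣ Nat.card (H ⊓ K : Subgroup G) := Subgroup.card_dvd_of_le hPQ
  have hHc := Subgroup.card_mul_index (P : Subgroup H)
  have hKc := Subgroup.card_mul_index (Q : Subgroup K)
  have hGc := Subgroup.card_mul_index (R : Subgroup G)
  set s := Nat.card (((P' : Set G) * (Q' : Set G) : Set G)) with hs
  set i := Nat.card (P' ⊓ Q' : Subgroup G) with hi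
  have hipos : 0 < i := Nat.card_pos
  -- |R| * c * d = s * a * b
  have heq : Nat.card (R : Subgroup G) * ((R : Subgroup G).index * d) =
      s * ((P : Subgroup H).index * (Q : Subgroup K).index) := by
    have h1 : Nat.card (R : Subgroup G) * (R : Subgroup G).index * (i * d) =
        (Nat.card (P : Subgroup H) * (P : Subgroup H).index) * (Nat.card (Q : Subgroup K) * (Q : Subgroup K).index) := by
      rw [hGc, hHc, hKc, ← hd]; exact hfac
    have h2 : Nat.card (P : Subgroup H) * Nat.card (Q : Subgroup K) = s * i := by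
      rw [← hcP, ← hcQ]; exact hformula
    apply Nat.eq_of_mul_eq_mul_right hipos
    calc Nat.card (R : Subgroup G) * ((R : Subgroup G).index * d) * i
        = Nat.card (R : Subgroup G) * (R : Subgroup G).index * (i * d) := by ring
      _ = (Nat.card (P : Subgroup H) * Nat.card (Q : Subgroup K)) * ((P : Subgroup H).index * (Q : Subgroup K).index) := by
          rw [h1]; ring
      _ = _ := by rw [h2]; ring
  obtain ⟨n, hn⟩ := R.2.exists_card_eq
  have hcop : Nat.Coprime (Nat.card (R : Subgroup G)) ((P : Subgroup H).index * (Q : Subgroup K).index) := by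
    rw [hn]
    apply Nat.Coprime.pow_left
    exact Nat.Coprime.mul_right ((Nat.Prime.coprime_iff_not_dvd hp.out).2 P.not_dvd_index)
      ((Nat.Prime.coprime_iff_not_dvd hp.out).2 Q.not_dvd_index)
  have hdvd : Nat.card (R : Subgroup G) ∣ s := by
    apply hcop.dvd_of_dvd_mul_right
    rw [← heq]
    exact dvd_mul_right _ _
  have hspos : 0 < s := by
    rw [hs, Nat.card_pos_iff]
    exact ⟨⟨⟨1, Set.mem_mul.2 ⟨1, one_mem _, 1, one_mem _, by simp⟩⟩⟩, Subtype.finite⟩
  have hle : Nat.card (R : Subgroup G) ≤ s := Nat.le_of_dvd hspos hdvd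
  symm
  apply Set.eq_of_subset_of_ncard_le hsub
  rw [← Nat.card_coe_set_eq, ← Nat.card_coe_set_eq]
  exact hle

theorem insert_normal_ofFn (A : Subgroup G) [hA : A.Normal] : ∀ (t : ℕ) (s : Fin t → G) (j : Fin t) (a : G), a ∈ A →
    ∃ s' : Fin t → G, (∀ i, i ≠ j → s' i = s i) ∧ (∃ b ∈ A, s' j = s j * b) ∧
      (List.ofFn s').prod = (List.ofFn s).prod * a := by
  intro t
  induction t with
  | zero => intro s j; exact Fin.elim0 j
  | succ t ih =>
    intro s j a ha
    rw [List.ofFn_succ, List.prod_cons]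
    refine Fin.cases ?_ ?_ j
    · set P := (List.ofFn fun i : Fin t => s i.succ).prod with hP
      refine ⟨Fin.cons (s 0 * (P * a * P⁻¹)) (fun i => s i.succ), ?_, ⟨P * a * P⁻¹, hA.conj_mem a ha P, rfl⟩, ?_⟩
      · intro i hi
        obtain ⟨i', rfl⟩ := Fin.exists_succ_eq.2 hi
        rfl
      · rw [List.ofFn_succ, List.prod_cons]
        simp only [Fin.cons_zero, Fin.cons_succ]
        rw [← hP]
        group
    · intro j'
      obtain ⟨s', h1, ⟨b, hb, h2⟩, h3⟩ := ih (fun i => s i.succ) j' a ha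
      refine ⟨Fin.cons (s 0) s', ?_, ⟨b, hb, ?_⟩, ?_⟩
      · intro i hi
        refine Fin.cases ?_ ?_ i hi
        · intro _; rfl
        · intro i' hi'
          have : i' ≠ j' := fun h => hi' (by rw [h])
          exact h1 i' this
      · exact h2
      · rw [List.ofFn_succ, List.prod_cons]
        simp only [Fin.cons_zero, Fin.cons_succ]
        rw [h3, mul_assoc]

end

/-- S0554 -/
theorem solvable_product_of_sylows : ∀ (c : ℕ) (G : Type u) [Group G] [Finite G] [Group.IsSolvable G], Nat.card G = c →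
    ∀ (t : ℕ) (p : Fin t → ℕ) (hp : ∀ i, (p i).Prime) (hinj : Function.Injective p)
      (hall : ∀ q : ℕ, q.Prime → q ∣ Nat.card G → ∃ i, p i = q) (S : (i : Fin t) → Sylow (p i) G),
      ∀ g : G, ∃ s : (i : Fin t) → G, (∀ i, s i ∈ (S i : Subgroup G)) ∧ g = (List.ofFn s).prod := by
  intro c
  induction c using Nat.strong_induction_on with
  | _ c ih =>
  intro G _ _ _ hc t p hp hinj hall S g
  by_cases hnt : Nontrivial G
  swap
  · rw [not_nontrivial_iff_subsingleton] at hnt
    refine ⟨fun _ => 1, fun i => one_mem _, ?_⟩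
    exact Subsingleton.elim _ _
  obtain ⟨A, hAn, hA0, hAmin⟩ := exists_minimal_normal (G := G)
  haveI := hAn
  obtain ⟨hAc, q, hq, hAq⟩ := minimal_normal_elementary A hA0 hAmin
  haveI : Fact q.Prime := ⟨hq⟩
  have hAp : IsPGroup q A := by
    intro x
    refine ⟨1, ?_⟩
    apply Subtype.ext
    simpa using hAq x x.2
  have hqG : q ∣ Nat.card G := by
    haveI : Nontrivial A := (Subgroup.nontrivial_iff_ne_bot _).2 hA0
    obtain ⟨n, hn⟩ := IsPGroup.iff_card.1 hAp
    have hn0 : n ≠ 0 := by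
      rintro rfl
      rw [pow_zero] at hn
      exact hA0 ((Subgroup.eq_bot_iff_card A).2 hn)
    have : q ∣ Nat.card A := hn ▸ dvd_pow_self q hn0
    exact this.trans (Subgroup.card_subgroup_dvd_card A)
  obtain ⟨j, hj⟩ := hall q hq hqG
  subst hj
  haveI hF : ∀ i, Fact (p i).Prime := fun i => ⟨hp i⟩
  have hAS : A ≤ (S j : Subgroup G) := by
    have h1 : A ≤ pCore (p j) G := le_pCore' A hAp
    exact le_trans h1 (CfsgLib.PLocal.pCore_le_sylow (S j))
  let f := QuotientGroup.mk' A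
  have hfs : Function.Surjective f := QuotientGroup.mk'_surjective A
  have hlt : Nat.card (G ⧸ A) < c := hc ▸ card_quotient_lt A hA0
  obtain ⟨s₁, hs₁, he₁⟩ := ih _ hlt (G ⧸ A) rfl t p hp hinj (by
    intro r hr hrd
    apply hall r hr
    exact hrd.trans (Subgroup.card_quotient_dvd_card A)) (fun i => (S i).mapSurjective hfs) (f g)
  have hpre : ∀ i, ∃ x ∈ (S i : Subgroup G), f x = s₁ i := by
    intro i
    have := hs₁ i
    rw [Sylow.coe_mapSurjective] at this
    obtain ⟨x, hx, hxe⟩ := this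
    exact ⟨x, hx, hxe⟩
  choose s₀ hs₀ hfs₀ using hpre
  have hprod : f (List.ofFn s₀).prod = (List.ofFn s₁).prod := by
    rw [map_list_prod, List.map_ofFn]
    congr 2
    funext i
    exact hfs₀ i
  set P₀ := (List.ofFn s₀).prod with hP₀
  have ha : P₀⁻¹ * g ∈ A := by
    have h1 : f (P₀⁻¹ * g) = 1 := by
      rw [map_mul, map_inv, hprod, he₁, inv_mul_cancel]
    exact (QuotientGroup.eq_one_iff _).1 h1
  obtain ⟨s', h1, ⟨b, hb, h2⟩, h3⟩ := insert_normal_ofFn A t s₀ j _ ha
  refine ⟨s', ?_, ?_⟩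
  · intro i
    by_cases hi : i = j
    · subst hi
      rw [h2]
      exact (S i : Subgroup G).mul_mem (hs₀ i) (hAS hb)
    · rw [h1 i hi]
      exact hs₀ i
  · rw [h3, ← hP₀]
    group

section Focal
variable {G : Type*} [Group G] [Finite G]

/-- Transfer argument for the residual: fusion modulo `X` in the residual. -/
theorem inf_residual_le (H : Subgroup G) (hHall : (Nat.card H).Coprime H.index) (X : Subgroup G)
    (hcomm : ∀ a ∈ H ⊓ numResidual (Nat.card H) G, ∀ b ∈ H ⊓ numResidual (Nat.card H) G, a * b * a⁻¹ * b⁻¹ ∈ X)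
    (hfus : ∀ x ∈ H ⊓ numResidual (Nat.card H) G, ∀ g ∈ numResidual (Nat.card H) G,
      g⁻¹ * x * g ∈ H ⊓ numResidual (Nat.card H) G → (g⁻¹ * x * g) * x⁻¹ ∈ X) :
    H ⊓ numResidual (Nat.card H) G ≤ X := by
  set m := Nat.card H with hm
  set L := numResidual m G with hL
  haveI hLn : L.Normal := numResidual_normal m
  set J := H ⊓ L with hJ
  let H' : Subgroup L := J.subgroupOf L
  let M' : Subgroup L := (X ⊓ J).subgroupOf L
  have hMH : M' ≤ H' := fun x hx => hx.2
  have hcomm' : ∀ a ∈ H', ∀ b ∈ H', a * b * a⁻¹ * b⁻¹ ∈ M' := by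
    intro a ha b hb
    rw [Subgroup.mem_subgroupOf]
    refine ⟨?_, ?_⟩
    · have e : ((a * b * a⁻¹ * b⁻¹ : L) : G) = (a : G) * b * (a : G)⁻¹ * (b : G)⁻¹ := by simp
      rw [e]
      exact hcomm _ ha _ hb
    · exact (H'.mul_mem (H'.mul_mem (H'.mul_mem ha hb) (H'.inv_mem ha)) (H'.inv_mem hb))
  have hfus' : ∀ x ∈ H', ∀ g : L, g⁻¹ * x * g ∈ H' → (g⁻¹ * x * g) * x⁻¹ ∈ M' := by
    intro x hx g hg
    rw [Subgroup.mem_subgroupOf]
    refine ⟨?_, ?_⟩
    · have e : (((g⁻¹ * x * g) * x⁻¹ : L) : G) = ((g : G)⁻¹ * x * g) * (x : G)⁻¹ := by simp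
      rw [e]
      exact hfus _ hx _ g.2 hg
    · exact H'.mul_mem hg (H'.inv_mem hx)
  have hH'idx : H'.index ∣ H.index := by
    have h1 : H'.index = H.relIndex L := Subgroup.inf_relIndex_right H L
    rw [h1]
    exact relIndex_normal_dvd_index H L
  have hM'idx : M'.relIndex H' ∣ m := by
    refine (Subgroup.relIndex_dvd_card M' H').trans ?_
    have h1 : Nat.card H' = Nat.card J := card_subgroupOf_of_le inf_le_right
    rw [h1]
    exact Subgroup.card_dvd_of_le inf_le_left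
  have hidx : Nat.Coprime H'.index (M'.relIndex H') :=
    Nat.Coprime.coprime_dvd_left hH'idx (Nat.Coprime.coprime_dvd_right hM'idx hHall.symm)
  obtain ⟨K, hKn, hKH, hKs, hKc, hKi⟩ := exists_transfer_kernel H' M' hMH hcomm' hfus' hidx
  have hKidx : K.index ∣ m := hKi ▸ hM'idx
  have hKtop : ∀ x : L, x ∈ K := by
    have h1 : L ≤ K.map L.subtype := by
      show Subgroup.closure _ ≤ _
      rw [Subgroup.closure_le]
      intro x hx
      have hxL : x ∈ L := Subgroup.subset_closure hx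
      refine ⟨⟨x, hxL⟩, ?_, rfl⟩
      haveI := hKn
      apply mem_of_coprime_index
      have ho : orderOf (⟨x, hxL⟩ : L) = orderOf x := Subgroup.orderOf_mk x hxL
      rw [ho]
      exact Nat.Coprime.coprime_dvd_right hKidx hx
    intro x
    obtain ⟨y, hy, hyx⟩ := h1 x.2
    have hyx' : y = x := Subtype.ext hyx
    rwa [← hyx']
  intro x hx
  have hxL : x ∈ L := hx.2
  have h1 : (⟨x, hxL⟩ : L) ∈ K ⊓ H' := ⟨hKtop _, hx⟩
  rw [hKH] at h1
  exact h1.1

/-- S0557 -/
theorem hall_focal_iterate_complement (H : Subgroup G) (hHall : (Nat.card H).Coprime H.index) (n : ℕ)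
    (hfoc : (fun K : Subgroup G => Subgroup.focalSubgroup K)^[n] H = ⊥) :
    ∃ N : Subgroup G, N.Normal ∧ N.IsComplement' H := by
  apply complement_of_inf_residual_bot H hHall
  set L := numResidual (Nat.card H) G with hL
  haveI hLn : L.Normal := numResidual_normal _
  have key : ∀ i, H ⊓ L ≤ (fun K : Subgroup G => Subgroup.focalSubgroup K)^[i] H := by
    intro i
    induction i with
    | zero => exact inf_le_left
    | succ i ih =>
      rw [Function.iterate_succ_apply']
      apply inf_residual_le H hHall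
      · intro a ha b hb
        have e : a * b * a⁻¹ * b⁻¹ = (a⁻¹⁻¹ * b * a⁻¹) * b⁻¹ := by group
        rw [e]
        apply focal_mem _ (ih hb) 
        rw [inv_inv]
        exact (_ : Subgroup G).mul_mem ((_ : Subgroup G).mul_mem (ih ha) (ih hb)) ((_ : Subgroup G).inv_mem (ih ha))
      · intro x hx g hg hgx
        exact focal_mem _ (ih hx) (ih hgx)
  have := key n
  rw [hfoc, le_bot_iff] at this
  exact this

end Focal

section Kegel
variable {G : Type*} [Group G]

theorem sSup_permute (F : Set (Subgroup G)) (D : Subgroup G)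
    (h : ∀ X ∈ F, (X : Set G) * (D : Set G) = (D : Set G) * (X : Set G)) :
    ((sSup F : Subgroup G) : Set G) * (D : Set G) = (D : Set G) * ((sSup F : Subgroup G) : Set G) := by
  set A₁ := sSup F with hA₁
  let T : Subgroup G :=
    { carrier := {a | a ∈ A₁ ∧ (∀ d ∈ D, ∃ a' ∈ A₁, ∃ d' ∈ D, d * a = a' * d') ∧
        (∀ d ∈ D, ∃ d' ∈ D, ∃ a' ∈ A₁, a * d = d' * a')}
      one_mem' := ⟨one_mem _, fun d hd => ⟨1, one_mem _, d, hd, by simp⟩, fun d hd => ⟨d, hd, 1, one_mem _, by simp⟩⟩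
      mul_mem' := by
        rintro a b ⟨ha, ha1, ha2⟩ ⟨hb, hb1, hb2⟩
        refine ⟨mul_mem ha hb, ?_, ?_⟩
        · intro d hd
          obtain ⟨a', ha', d', hd', e1⟩ := ha1 d hd
          obtain ⟨a'', ha'', d'', hd'', e2⟩ := hb1 d' hd'
          exact ⟨a' * a'', mul_mem ha' ha'', d'', hd'', by rw [← mul_assoc, e1, mul_assoc, e2, mul_assoc]⟩
        · intro d hd
          obtain ⟨d', hd', b', hb', e1⟩ := hb2 d hd
          obtain ⟨d'', hd'', a', ha', e2⟩ := ha2 d' hd'
          exact ⟨d'', hd'', a' * b', mul_mem ha' hb', by rw [mul_assoc, e1, ← mul_assoc, e2, mul_assoc]⟩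
      inv_mem' := by
        rintro a ⟨ha, ha1, ha2⟩
        refine ⟨inv_mem ha, ?_, ?_⟩
        · intro d hd
          obtain ⟨d', hd', a', ha', e⟩ := ha2 d⁻¹ (inv_mem hd)
          refine ⟨a'⁻¹, inv_mem ha', d'⁻¹, inv_mem hd', ?_⟩
          rw [← mul_inv_rev, ← e]; group
        · intro d hd
          obtain ⟨a', ha', d', hd', e⟩ := ha1 d⁻¹ (inv_mem hd)
          refine ⟨d'⁻¹, inv_mem hd', a'⁻¹, inv_mem ha', ?_⟩
          rw [← mul_inv_rev, ← e]; group }
  have hle : A₁ ≤ T := by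
    apply sSup_le
    intro X hX a ha
    have hXle : X ≤ A₁ := le_sSup hX
    refine ⟨hXle ha, ?_, ?_⟩
    · intro d hd
      have h1 : d * a ∈ (D : Set G) * (X : Set G) := Set.mul_mem_mul hd ha
      rw [← h X hX] at h1
      obtain ⟨a', ha', d', hd', e⟩ := h1
      exact ⟨a', hXle ha', d', hd', e.symm⟩
    · intro d hd
      have h1 : a * d ∈ (X : Set G) * (D : Set G) := Set.mul_mem_mul ha hd
      rw [h X hX] at h1
      obtain ⟨d', hd', a', ha', e⟩ := h1
      exact ⟨d', hd', a', hXle ha', e.symm⟩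
  ext g
  constructor
  · rintro ⟨a, ha, d, hd, rfl⟩
    obtain ⟨d', hd', a', ha', e⟩ := (hle ha).2.2 d hd
    exact ⟨d', hd', a', ha', e.symm⟩
  · rintro ⟨d, hd, a, ha, rfl⟩
    obtain ⟨a', ha', d', hd', e⟩ := (hle ha).2.1 d hd
    exact ⟨a', ha', d', hd', e.symm⟩

theorem permute_of_eq_subgroup {S X Y : Subgroup G} (h : (S : Set G) = (X : Set G) * (Y : Set G)) :
    (X : Set G) * (Y : Set G) = (Y : Set G) * (X : Set G) := by
  ext g
  constructor
  · intro hg
    have hgS : g ∈ (S : Set G) := by rw [h]; exact hg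
    have h1 : g⁻¹ ∈ (S : Set G) := S.inv_mem hgS
    rw [h] at h1
    obtain ⟨x, hx, y, hy, e⟩ := h1
    refine ⟨y⁻¹, Y.inv_mem hy, x⁻¹, X.inv_mem hx, ?_⟩
    show y⁻¹ * x⁻¹ = g
    have e' : x * y = g⁻¹ := e
    rw [← mul_inv_rev, e', inv_inv]
  · rintro ⟨y, hy, x, hx, rfl⟩
    have h1 : x⁻¹ * y⁻¹ ∈ (S : Set G) := by
      rw [h]
      exact Set.mul_mem_mul (X.inv_mem hx) (Y.inv_mem hy)
    have h2 : y * x ∈ (S : Set G) := by
      have := S.inv_mem h1
      simpa using this
    rw [h] at h2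
    exact h2

variable [Finite G]

/-- S0566, Kegel -/
theorem kegel_proper_products (B : Subgroup G) : ∀ (k : ℕ) (A : Subgroup G), Nat.card G - Nat.card A = k →
    (∀ x : G, ∃ S : Subgroup G, S ≠ ⊤ ∧ (S : Set G) = (A : Set G) * ((MulAut.conj x • B : Subgroup G) : Set G)) →
    ∃ N : Subgroup G, N.Normal ∧ N ≠ ⊤ ∧ (A ≤ N ∨ B ≤ N) := by
  intro k
  induction k using Nat.strong_induction_on with
  | _ k ih =>
  intro A hk h
  by_cases hall : ∀ x : G, MulAut.conj x • B ≤ normalizer (A : Set G)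
  · by_cases hAn : A.Normal
    · obtain ⟨S, hS, hSe⟩ := h 1
      refine ⟨A, hAn, ?_, Or.inl le_rfl⟩
      intro htop
      apply hS
      rw [eq_top_iff, ← htop]
      intro a ha
      rw [← SetLike.mem_coe, hSe]
      exact ⟨a, ha, 1, one_mem _, by simp⟩
    · refine ⟨normalClosure (B : Set G), inferInstance, ?_, Or.inr Subgroup.le_normalClosure⟩
      intro htop
      apply hAn
      rw [← normalizer_eq_top_iff, eq_top_iff, ← htop]
      show Subgroup.closure _ ≤ _
      rw [Subgroup.closure_le]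
      rintro y hy
      obtain ⟨b, hb, hc⟩ := Group.mem_conjugatesOfSet_iff.1 hy
      obtain ⟨c, rfl⟩ := isConj_iff.1 hc
      apply hall c
      rw [mem_conj_smul]
      have e : c⁻¹ * (c * b * c⁻¹) * c = b := by group
      rw [e]
      exact hb
  push Not at hall
  obtain ⟨x₀, hx₀⟩ := hall
  obtain ⟨u₀, hu₀, hu₀N⟩ := SetLike.not_le_iff_exists.1 hx₀
  obtain ⟨S₀, hS₀, hS₀e⟩ := h x₀
  set C := MulAut.conj x₀ • B with hC
  have hAS₀ : A ≤ S₀ := by
    intro a ha
    rw [← SetLike.mem_coe, hS₀e]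
    exact ⟨a, ha, 1, one_mem _, by simp⟩
  have hCS₀ : C ≤ S₀ := by
    intro a ha
    rw [← SetLike.mem_coe, hS₀e]
    exact ⟨1, one_mem _, a, ha, by simp⟩
  set F : Set (Subgroup G) := {X | ∃ u ∈ C, X = MulAut.conj u • A} with hF
  set A₁ := sSup F with hA₁
  have hAA₁ : A ≤ A₁ := by
    apply le_sSup
    exact ⟨1, one_mem _, by rw [map_one, one_smul]⟩
  have hA₁S₀ : A₁ ≤ S₀ := by
    apply sSup_le
    rintro _ ⟨u, hu, rfl⟩ z hz
    rw [mem_conj_smul] at hz
    have h1 := S₀.mul_mem (S₀.mul_mem (hCS₀ hu) (hAS₀ hz)) (S₀.inv_mem (hCS₀ hu))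
    have e : u * (u⁻¹ * z * u) * u⁻¹ = z := by group
    rwa [e] at h1
  have hcard : Nat.card A < Nat.card A₁ := by
    by_contra hle
    push Not at hle
    have h1 := Subgroup.eq_of_le_of_card_ge hAA₁ hle
    have h2 : MulAut.conj u₀ • A ≤ A₁ := le_sSup ⟨u₀, hu₀, rfl⟩
    rw [← h1] at h2
    have h3 : MulAut.conj u₀ • A = A := by
      apply Subgroup.eq_of_le_of_card_ge h2
      rw [card_conj_smul]
    exact hu₀N (mem_normalizer_of_conj_eq h3)
  have hcardle : Nat.card A₁ ≤ Nat.card G := Subgroup.card_le_card_group A₁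
  have hpermu : ∀ u : G, ∀ y : G, ∃ T : Subgroup G, (T : Set G) =
      ((MulAut.conj u • A : Subgroup G) : Set G) * ((MulAut.conj y • B : Subgroup G) : Set G) := by
    intro u y
    obtain ⟨T, _, hT⟩ := h (u⁻¹ * y)
    refine ⟨MulAut.conj u • T, ?_⟩
    ext z
    rw [SetLike.mem_coe, mem_conj_smul, ← SetLike.mem_coe, hT]
    constructor
    · rintro ⟨a, ha, w, hw, he⟩
      refine ⟨u * a * u⁻¹, ?_, u * w * u⁻¹, ?_, ?_⟩
      · rw [SetLike.mem_coe, mem_conj_smul]
        have e : u⁻¹ * (u * a * u⁻¹) * u = a := by group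
        rw [e]; exact ha
      · rw [SetLike.mem_coe, mem_conj_smul] at hw ⊢
        have e : y⁻¹ * (u * w * u⁻¹) * y = (u⁻¹ * y)⁻¹ * w * (u⁻¹ * y) := by group
        rw [e]; exact hw
      · simp only at he ⊢
        have e : z = u * (u⁻¹ * z * u) * u⁻¹ := by group
        rw [e, ← he]; group
    · rintro ⟨a', ha', w', hw', he⟩
      rw [SetLike.mem_coe, mem_conj_smul] at ha' hw'
      refine ⟨u⁻¹ * a' * u, ha', u⁻¹ * w' * u, ?_, ?_⟩
      · rw [SetLike.mem_coe, mem_conj_smul]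
        have e : (u⁻¹ * y)⁻¹ * (u⁻¹ * w' * u) * (u⁻¹ * y) = y⁻¹ * w' * y := by group
        rw [e]; exact hw'
      · simp only at he ⊢
        rw [← he]; group
  have hpermA₁ : ∀ y : G, (A₁ : Set G) * ((MulAut.conj y • B : Subgroup G) : Set G) =
      ((MulAut.conj y • B : Subgroup G) : Set G) * (A₁ : Set G) := by
    intro y
    apply sSup_permute
    rintro _ ⟨u, hu, rfl⟩
    obtain ⟨T, hT⟩ := hpermu u y
    exact permute_of_eq_subgroup hT
  obtain ⟨N, hNn, hNt, hN⟩ := ih (Nat.card G - Nat.card A₁) (by omega) A₁ rfl (by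
    intro y
    set D := MulAut.conj y • B with hD
    refine ⟨A₁ ⊔ D, ?_, coe_sup_of_permute _ _ (hpermA₁ y)⟩
    intro htop
    apply hS₀
    rw [eq_top_iff]
    have hg : ∀ g : G, g ∈ (D : Set G) * (A₁ : Set G) := by
      intro g
      rw [← hpermA₁ y, ← coe_sup_of_permute _ _ (hpermA₁ y), htop]
      trivial
    obtain ⟨w, hw, a, ha, he⟩ := hg (y * x₀⁻¹)
    simp only at he
    have hDeq : D = MulAut.conj a • C := by
      have h1 : MulAut.conj (w * a) • C = D := by
        rw [he, hC, ← conj_mul_smul]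
        congr 2
        group
      rw [conj_mul_smul] at h1
      have h2 : MulAut.conj w⁻¹ • D = D :=
        (mem_normalizer_iff_conj_smul).1 (Subgroup.le_normalizer (D.inv_mem hw))
      rw [← h2]
      nth_rw 1 [← h1]
      rw [conj_inv_smul_smul]
    have hDS₀ : D ≤ S₀ := by
      rw [hDeq]
      intro z hz
      rw [mem_conj_smul] at hz
      have h1 := S₀.mul_mem (S₀.mul_mem (hA₁S₀ ha) (hCS₀ hz)) (S₀.inv_mem (hA₁S₀ ha))
      have e : a * (a⁻¹ * z * a) * a⁻¹ = z := by group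
      rwa [e] at h1
    rw [← htop]
    exact sup_le hA₁S₀ hDS₀)
  refine ⟨N, hNn, hNt, ?_⟩
  rcases hN with h1 | h1
  · exact Or.inl (le_trans hAA₁ h1)
  · exact Or.inr h1

end Kegel

end CfsgLib.SS
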