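import Cfsg.Agent.Lib.SS.Wielandt

set_option autoImplicit false
set_option linter.unusedSectionVars false
set_option linter.style.haveILetI false
set_option linter.unusedSimpArgs false
set_option linter.unusedVariables false

open Pointwise
open scoped commutatorElement

namespace CfsgLib.SS

open Subgroup Cfsg CfsgLib.Solv CfsgLib.Trans

universe u

section
variable {G : Type u} [Group G] [Finite G]

theorem exists_sylow_normal_in_hall (H : Subgroup G) (hH : IsSupersolvable H)
    (hHall : (Nat.card H).Coprime H.index) (p : ℕ) [hp : Fact p.Prime] (hpd : p ∣ Nat.card H)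
    (hmax : ∀ q : ℕ, q.Prime → q ∣ Nat.card H → q ≤ p) :
    ∃ P : Sylow p G, (P : Subgroup G) ≤ H ∧ H ≤ normalizer ((P : Subgroup G) : Set G) := by
  let R : Sylow p H := default
  have hRn : (R : Subgroup H).Normal :=
    clt_sylow_largest_normal _ H rfl
      (fun L => hasSubgroupOfEveryOrder_of_supersolvable _ L rfl (isSupersolvable_subgroup hH L))
      p hpd hmax R
  set R' := (R : Subgroup H).map H.subtype with hR'
  have hR'H : R' ≤ H := by
    rintro _ ⟨x, -, rfl⟩
    exact x.2
  have hR'p : IsPGroup p R' := R.2.map H.subtype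
  have hR'idx : ¬ p ∣ R'.index := by
    rw [hR', Subgroup.index_map_subtype]
    intro h
    rcases hp.out.dvd_mul.1 h with h | h
    · exact Sylow.not_dvd_index (R) h
    · exact hp.out.one_lt.ne' (Nat.eq_one_of_dvd_coprimes hHall hpd h)
  refine ⟨hR'p.toSylow hR'idx, hR'H, ?_⟩
  intro h hh
  change h ∈ normalizer (R' : Set G)
  rw [Subgroup.mem_normalizer_iff]
  intro a
  constructor
  · rintro ⟨b, hb, rfl⟩
    exact ⟨⟨h, hh⟩ * b * ⟨h, hh⟩⁻¹, hRn.conj_mem b hb _, rfl⟩
  · rintro ⟨b, hb, hbe⟩
    refine ⟨⟨h, hh⟩⁻¹ * b * ⟨h, hh⟩, ?_, ?_⟩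
    · have := hRn.conj_mem b hb ⟨h, hh⟩⁻¹
      rwa [inv_inv] at this
    · have : a = h⁻¹ * (H.subtype b) * h := by
        rw [hbe]; group
      simp [this]

theorem supersolvable_hall_conj : ∀ (c : ℕ) (G : Type u) [Group G] [Finite G], Nat.card G = c →
    ∀ H K : Subgroup G, IsSupersolvable H → IsSupersolvable K → Nat.card H = Nat.card K →
      (Nat.card H).Coprime H.index → ∃ x : G, MulAut.conj x • H = K := by
  intro c
  induction c using Nat.strong_induction_on with
  | _ c IH =>
    intro G _ _ hc H K hH hK hcard hHall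
    by_cases h1 : Nat.card H = 1
    · refine ⟨1, ?_⟩
      have h2 : H = ⊥ := Subgroup.eq_bot_of_card_eq _ h1
      have h3 : K = ⊥ := Subgroup.eq_bot_of_card_eq _ (hcard ▸ h1)
      rw [h2, h3]
      simp
    obtain ⟨p, hp, hpd, hmax⟩ := exists_largest_prime (Nat.card H) h1 Nat.card_pos.ne'
    haveI hpf : Fact p.Prime := ⟨hp⟩
    have hidx : H.index = K.index := by
      have h2 := Subgroup.card_mul_index H
      have h3 := Subgroup.card_mul_index K
      rw [← h3, ← hcard] at h2
      exact Nat.eq_of_mul_eq_mul_left Nat.card_pos h2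
    obtain ⟨P₁, hP₁H, hHN⟩ := exists_sylow_normal_in_hall H hH hHall p hpd hmax
    obtain ⟨P₂, hP₂K, hKN⟩ := exists_sylow_normal_in_hall K hK (hcard ▸ hidx ▸ hHall) p (hcard ▸ hpd)
      (hcard ▸ hmax)
    obtain ⟨g, hg⟩ := MulAction.exists_smul_eq G P₁ P₂
    set P : Subgroup G := (P₂ : Subgroup G) with hP
    have hgP : MulAut.conj g • (P₁ : Subgroup G) = P := by
      rw [hP, ← hg, Sylow.coe_subgroup_smul]
    set H' := MulAut.conj g • H with hH'
    have hH'card : Nat.card H' = Nat.card H := card_conj_smul g H
    have hH'idx : H'.index = H.index := by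
      have h2 := Subgroup.card_mul_index H
      have h3 := Subgroup.card_mul_index H'
      rw [← h3, hH'card] at h2
      exact (Nat.eq_of_mul_eq_mul_left Nat.card_pos h2).symm
    have hPH' : P ≤ H' := by
      rw [← hgP]
      exact Subgroup.pointwise_smul_le_pointwise_smul_iff.2 hP₁H
    have hH'N : H' ≤ normalizer (P : Set G) := by
      rw [← hgP, ← conj_smul_normalizer]
      exact Subgroup.pointwise_smul_le_pointwise_smul_iff.2 hHN
    have hH's : IsSupersolvable H' :=
      isSupersolvable_of_mulEquiv (Subgroup.equivSMul (MulAut.conj g) H) hH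
    suffices hfin : ∃ y : G, MulAut.conj y • H' = K by
      obtain ⟨y, hy⟩ := hfin
      refine ⟨y * g, ?_⟩
      rw [conj_mul_smul]
      exact hy
    by_cases hN : normalizer (P : Set G) = ⊤
    · haveI hPn : P.Normal := Subgroup.normalizer_eq_top_iff.1 hN
      let f := QuotientGroup.mk' P
      have hf : Function.Surjective f := QuotientGroup.mk'_surjective P
      have hPbot : P ≠ ⊥ := by
        intro hb
        have h2 : ¬ p ∣ (P : Subgroup G).index := P₂.not_dvd_index
        rw [hb, Subgroup.index_bot] at h2
        apply h2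
        rw [← Subgroup.card_mul_index K]
        exact (hcard ▸ hpd).trans (Dvd.intro _ rfl)
      have hcardlt : Nat.card (G ⧸ P) < Nat.card G := card_quotient_lt P hPbot
      have hidxf : ∀ L : Subgroup G, P ≤ L → (L.map f).index = L.index := by
        intro L hL
        have hcomap : (L.map f).comap f = L := by
          rw [Subgroup.comap_map_eq_self]
          rw [QuotientGroup.ker_mk']
          exact hL
        rw [← Subgroup.index_comap_of_surjective _ hf, hcomap]
      have hi1 := hidxf H' hPH'
      have hi2 := hidxf K hP₂K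
      obtain ⟨x, hx⟩ := IH _ (hc ▸ hcardlt) (G ⧸ P) rfl (H'.map f) (K.map f)
        (isSupersolvable_of_surjective (f.subgroupMap H') (f.subgroupMap_surjective H') hH's)
        (isSupersolvable_of_surjective (f.subgroupMap K) (f.subgroupMap_surjective K) hK)
        (by
          have h2 := Subgroup.card_mul_index (H'.map f)
          have h3 := Subgroup.card_mul_index (K.map f)
          rw [← h3, hi1, hi2, hH'idx, hidx] at h2
          exact Nat.eq_of_mul_eq_mul_right (Nat.pos_of_ne_zero (Subgroup.index_ne_zero_of_finite)) h2)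
        (by
          rw [hi1, hH'idx]
          exact Nat.Coprime.coprime_dvd_left ((Subgroup.card_map_dvd H' f).trans hH'card.dvd) hHall)
      obtain ⟨y, rfl⟩ := hf x
      refine ⟨y, ?_⟩
      have := conj_of_quotient P H' K y hx
      rwa [sup_eq_left.2 hPH', sup_eq_left.2 hP₂K] at this
    · set M := normalizer (P : Set G) with hM
      have hcardlt : Nat.card M < Nat.card G := by
        refine lt_of_le_of_ne (Subgroup.card_le_card_group M) ?_
        intro h
        exact hN (Subgroup.eq_top_of_card_eq M h)
      have hc1 : Nat.card (H'.subgroupOf M) = Nat.card H' := card_subgroupOf_of_le hH'N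
      have hc2 : Nat.card (K.subgroupOf M) = Nat.card K := card_subgroupOf_of_le hKN
      obtain ⟨y, hy⟩ := IH _ (hc ▸ hcardlt) M rfl (H'.subgroupOf M) (K.subgroupOf M)
        (isSupersolvable_of_mulEquiv (Subgroup.subgroupOfEquivOfLe hH'N).symm hH's)
        (isSupersolvable_of_mulEquiv (Subgroup.subgroupOfEquivOfLe hKN).symm hK)
        (by rw [hc1, hc2, hH'card, hcard])
        (by
          rw [hc1, hH'card]
          have h1 : (H'.subgroupOf M).index ∣ H'.index := by
            change H'.relIndex M ∣ H'.index
            exact Dvd.intro _ (Subgroup.relIndex_mul_index hH'N)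
          rw [hH'idx] at h1
          exact Nat.Coprime.coprime_dvd_right h1 hHall)
      refine ⟨y, ?_⟩
      apply Subgroup.eq_of_le_of_card_ge
      · intro z hz
        rw [mem_conj_smul] at hz
        have hzM : z ∈ M := by
          have h2 := hH'N hz
          have h3 : z = (y : G) * ((y : G)⁻¹ * z * y) * (y : G)⁻¹ := by group
          rw [h3]
          exact M.mul_mem (M.mul_mem y.2 h2) (M.inv_mem y.2)
        have h2 : (⟨z, hzM⟩ : M) ∈ MulAut.conj y • H'.subgroupOf M := by
          rw [mem_conj_smul, Subgroup.mem_subgroupOf]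
          exact hz
        rw [hy, Subgroup.mem_subgroupOf] at h2
        exact h2
      · rw [card_conj_smul, hH'card, hcard]

end

end CfsgLib.SS
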