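import Cfsg.Agent.Lib.SS.HallConj
import Cfsg.Agent.Lib.Lead.CardMul
import Cfsg.Agent.Lib.Solv.Hall

set_option autoImplicit false
set_option linter.unusedSectionVars false
set_option linter.style.haveILetI false
set_option linter.unusedSimpArgs false
set_option linter.unusedVariables false

open Pointwise
open scoped commutatorElement

namespace CfsgLib.SS

open Subgroup Cfsg CfsgLib.Solv CfsgLib.Trans

universe u

section
variable {G : Type u} [Group G] [Finite G]

/-- In a finite solvable group there are permuting Hall subgroups of any two Hall orders. -/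
theorem exists_permuting_hall_pair [Group.IsSolvable G] (m n a b : ℕ) (hma : Nat.card G = m * a) (hnb : Nat.card G = n * b)
    (hmc : m.Coprime a) (hnc : n.Coprime b) :
    ∃ X Y T : Subgroup G, Nat.card X = m ∧ Nat.card Y = n ∧ (T : Set G) = (X : Set G) * (Y : Set G) := by
  classical
  have hNpos : 0 < Nat.card G := Nat.card_pos
  have hm0 : 0 < m := by
    rcases Nat.eq_zero_or_pos m with h | h
    · rw [h, zero_mul] at hma; omega
    · exact h
  have hn0 : 0 < n := by
    rcases Nat.eq_zero_or_pos n with h | h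
    · rw [h, zero_mul] at hnb; omega
    · exact h
  obtain ⟨m', n', hcop, hm, hn⟩ := Nat.exists_coprime m n
  set w := Nat.gcd m n with hw
  have hw0 : 0 < w := Nat.gcd_pos_of_pos_left _ hm0
  have hm'0 : 0 < m' := by
    rcases Nat.eq_zero_or_pos m' with h | h
    · rw [h, zero_mul] at hm; omega
    · exact h
  have hn'0 : 0 < n' := by
    rcases Nat.eq_zero_or_pos n' with h | h
    · rw [h, zero_mul] at hn; omega
    · exact h
  -- arithmetic
  have e1 : m' * a = n' * b := by
    have : m' * w * a = n' * w * b := by rw [← hm, ← hn, ← hma, hnb]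
    have h2 : w * (m' * a) = w * (n' * b) := by
      calc w * (m' * a) = m' * w * a := by ring
        _ = n' * w * b := this
        _ = w * (n' * b) := by ring
    exact Nat.eq_of_mul_eq_mul_left hw0 h2
  have hn'a : n' ∣ a := Nat.Coprime.dvd_of_dvd_mul_left hcop.symm (by rw [e1]; exact Dvd.intro _ rfl)
  obtain ⟨c, hc⟩ := hn'a
  have hb : b = m' * c := by
    have : n' * b = n' * (m' * c) := by
      rw [← e1, hc]; ring
    exact Nat.eq_of_mul_eq_mul_left hn'0 this
  subst hc
  subst hb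
  set l := w * (m' * n') with hl
  have hNl : Nat.card G = l * c := by
    rw [hma]
    conv_lhs => rw [hm]
    rw [hl]; ring
  have hcop1 : (m' * w).Coprime (n' * c) := hm ▸ hmc
  have hcop2 : (n' * w).Coprime (m' * c) := hn ▸ hnc
  have hwn' : w.Coprime n' := Nat.Coprime.coprime_dvd_right (Dvd.intro _ rfl)
    (Nat.Coprime.coprime_dvd_left (Dvd.intro_left _ rfl) hcop1)
  have hwm' : w.Coprime m' := Nat.Coprime.coprime_dvd_right (Dvd.intro _ rfl)
    (Nat.Coprime.coprime_dvd_left (Dvd.intro_left _ rfl) hcop2)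
  have hwc : w.Coprime c := Nat.Coprime.coprime_dvd_right (Dvd.intro_left _ rfl)
    (Nat.Coprime.coprime_dvd_left (Dvd.intro_left _ rfl) hcop1)
  have hm'c : m'.Coprime c := Nat.Coprime.coprime_dvd_right (Dvd.intro_left _ rfl)
    (Nat.Coprime.coprime_dvd_left (Dvd.intro _ rfl) hcop1)
  have hn'c : n'.Coprime c := Nat.Coprime.coprime_dvd_right (Dvd.intro_left _ rfl)
    (Nat.Coprime.coprime_dvd_left (Dvd.intro _ rfl) hcop2)
  have hlc : l.Coprime c := by
    rw [hl]
    exact Nat.Coprime.mul_left hwc (Nat.Coprime.mul_left hm'c hn'c)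
  obtain ⟨T, hT, -⟩ := hall_containing _ G rfl l c hNl hlc ⊥ (by simp)
  have hTl1 : Nat.card T = w * (m' * n') := hT
  obtain ⟨W₀, hW₀, -⟩ := hall_containing _ T rfl w (m' * n') hTl1
    (Nat.Coprime.mul_right hwm' hwn') ⊥ (by simp)
  obtain ⟨X₀, hX₀, hWX⟩ := hall_containing _ T rfl (m' * w) n' (by rw [hTl1]; ring)
    (Nat.Coprime.coprime_dvd_right (Dvd.intro _ rfl) hcop1) W₀ (by rw [hW₀]; exact hwn')
  obtain ⟨Y₀, hY₀, hWY⟩ := hall_containing _ T rfl (n' * w) m' (by rw [hTl1]; ring)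
    (Nat.Coprime.coprime_dvd_right (Dvd.intro _ rfl) hcop2) W₀ (by rw [hW₀]; exact hwm')
  have hinf : Nat.card (X₀ ⊓ Y₀ : Subgroup T) = w := by
    apply Nat.dvd_antisymm
    · have h1 : Nat.card (X₀ ⊓ Y₀ : Subgroup T) ∣ m' * w := hX₀ ▸ Subgroup.card_dvd_of_le inf_le_left
      have h2 : Nat.card (X₀ ⊓ Y₀ : Subgroup T) ∣ n' * w := hY₀ ▸ Subgroup.card_dvd_of_le inf_le_right
      rw [hw]
      rw [← hm] at h1
      rw [← hn] at h2
      exact Nat.dvd_gcd h1 h2
    · rw [← hW₀]
      exact Subgroup.card_dvd_of_le (le_inf hWX hWY)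
  have hprod : ((X₀ : Set T) * (Y₀ : Set T) : Set T) = Set.univ := by
    have h1 := Lead.card_mul_card_eq_card_mul_mul_card_inf X₀ Y₀
    rw [hX₀, hY₀, hinf] at h1
    have h2 : Nat.card ((X₀ : Set T) * (Y₀ : Set T) : Set T) = Nat.card T := by
      rw [hTl1]
      have h3 : w * (w * (m' * n')) = w * Nat.card ((X₀ : Set T) * (Y₀ : Set T) : Set T) := by
        calc w * (w * (m' * n')) = m' * w * (n' * w) := by ring
          _ = _ := h1
          _ = _ := by ring
      exact (Nat.eq_of_mul_eq_mul_left hw0 h3).symm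
    have h3 : ((X₀ : Set T) * (Y₀ : Set T) : Set T).ncard = (Set.univ : Set T).ncard := by
      rw [Set.ncard_univ]
      rwa [← Nat.card_coe_set_eq]
    exact Set.eq_of_subset_of_ncard_le (Set.subset_univ _) h3.ge
  refine ⟨X₀.map T.subtype, Y₀.map T.subtype, T, ?_, ?_, ?_⟩
  · rw [Subgroup.card_map_of_injective T.subtype_injective, hX₀, ← hm]
  · rw [Subgroup.card_map_of_injective T.subtype_injective, hY₀, ← hn]
  · ext z
    constructor
    · intro hz
      have hz' : (⟨z, hz⟩ : T) ∈ ((X₀ : Set T) * (Y₀ : Set T) : Set T) := by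
        rw [hprod]; trivial
      obtain ⟨u, hu, v, hv, huv⟩ := Set.mem_mul.1 hz'
      refine Set.mem_mul.2 ⟨u, ⟨u, hu, rfl⟩, v, ⟨v, hv, rfl⟩, ?_⟩
      simpa using congrArg Subtype.val huv
    · intro hz
      obtain ⟨u, ⟨u', hu, rfl⟩, v, ⟨v', hv, rfl⟩, rfl⟩ := Set.mem_mul.1 hz
      exact T.mul_mem u'.2 v'.2

/-- S0561 -/
theorem hall_of_factors_permute [Group.IsSolvable G] (H K A B : Subgroup G) (hHK : ∀ g : G, ∃ h ∈ H, ∃ k ∈ K, g = h * k)
    (hA : A ≤ H) (hAn : (A.subgroupOf H).Normal) (hB : B ≤ K) (hBn : (B.subgroupOf K).Normal)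
    (hAh : (Nat.card A).Coprime A.index) (hBh : (Nat.card B).Coprime B.index) (x y : G) :
    ∃ S : Subgroup G, (S : Set G) = ((MulAut.conj x • A : Subgroup G) : Set G) * ((MulAut.conj y • B : Subgroup G) : Set G) := by
  have hHN : H ≤ normalizer (A : Set G) := (Subgroup.normal_subgroupOf_iff_le_normalizer hA).1 hAn
  have hKN : K ≤ normalizer (B : Set G) := (Subgroup.normal_subgroupOf_iff_le_normalizer hB).1 hBn
  obtain ⟨X, Y, T, hX, hY, hT⟩ := exists_permuting_hall_pair (G := G) (Nat.card A) (Nat.card B) A.index B.index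
    (Subgroup.card_mul_index A).symm (Subgroup.card_mul_index B).symm hAh hBh
  obtain ⟨u, hu⟩ := hall_conj _ G rfl (Nat.card A) A.index (Subgroup.card_mul_index A).symm hAh X A hX rfl
  obtain ⟨v, hv⟩ := hall_conj _ G rfl (Nat.card B) B.index (Subgroup.card_mul_index B).symm hBh Y B hY rfl
  obtain ⟨h₁, hh₁, k₁, hk₁, he⟩ := hHK (u * v⁻¹)
  obtain ⟨h, hh, k, hk, he2⟩ := hHK (x⁻¹ * y)
  have hg1 : h₁⁻¹ * u = k₁ * v := by
    have : u = h₁ * k₁ * v := by rw [← he]; group
    rw [this]; group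
  set g := h₁⁻¹ * u with hgdef
  have hgX : MulAut.conj g • X = A := by
    rw [hgdef, conj_mul_smul, hu]
    exact mem_normalizer_iff_conj_smul.1 (hHN (H.inv_mem hh₁))
  have hgY : MulAut.conj g • Y = B := by
    rw [hg1, conj_mul_smul, hv]
    exact mem_normalizer_iff_conj_smul.1 (hKN hk₁)
  have hxA : MulAut.conj x • A = MulAut.conj (x * h * g) • X := by
    rw [conj_mul_smul, hgX, conj_mul_smul, mem_normalizer_iff_conj_smul.1 (hHN hh)]
  have hyB : MulAut.conj y • B = MulAut.conj (x * h * g) • Y := by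
    have hy : y = x * h * k := by rw [mul_assoc, ← he2]; group
    rw [conj_mul_smul, hgY, hy, conj_mul_smul, mem_normalizer_iff_conj_smul.1 (hKN hk)]
  refine ⟨MulAut.conj (x * h * g) • T, ?_⟩
  rw [hxA, hyB]
  set c := x * h * g
  ext z
  constructor
  · intro hz
    have hz1 : c⁻¹ * z * c ∈ T := by
      exact (mem_conj_smul c z T).1 hz
    have hz2 : c⁻¹ * z * c ∈ ((X : Set G) * (Y : Set G) : Set G) := hT ▸ hz1
    obtain ⟨p, hp, q, hq, hpq⟩ := Set.mem_mul.1 hz2
    refine Set.mem_mul.2 ⟨c * p * c⁻¹, ?_, c * q * c⁻¹, ?_, ?_⟩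
    · change _ ∈ MulAut.conj c • X
      rw [mem_conj_smul]
      have : c⁻¹ * (c * p * c⁻¹) * c = p := by group
      rw [this]; exact hp
    · change _ ∈ MulAut.conj c • Y
      rw [mem_conj_smul]
      have : c⁻¹ * (c * q * c⁻¹) * c = q := by group
      rw [this]; exact hq
    · have : z = c * (c⁻¹ * z * c) * c⁻¹ := by group
      rw [this, ← hpq]; group
  · intro hz
    obtain ⟨p, hp, q, hq, rfl⟩ := Set.mem_mul.1 hz
    change _ ∈ MulAut.conj c • T
    rw [mem_conj_smul]
    have hp' : c⁻¹ * p * c ∈ X := (mem_conj_smul c p X).1 hp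
    have hq' : c⁻¹ * q * c ∈ Y := (mem_conj_smul c q Y).1 hq
    have h3 : c⁻¹ * (p * q) * c ∈ ((X : Set G) * (Y : Set G) : Set G) :=
      Set.mem_mul.2 ⟨_, hp', _, hq', by group⟩
    rw [← hT] at h3
    exact h3

end

end CfsgLib.SS
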