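import Cfsg.Agent.Lib.SS.Wielandt
import Cfsg.Agent.Lib.Solv.Frob

set_option autoImplicit false
set_option linter.unusedSectionVars false
set_option linter.style.haveILetI false
set_option linter.unusedSimpArgs false
set_option linter.unusedVariables false

open Pointwise
open scoped commutatorElement

namespace CfsgLib.SS

open Subgroup Cfsg CfsgLib.Solv CfsgLib.Trans

universe u

section
variable {G : Type u} [Group G] [Finite G]

theorem commutator_le_of_normal_coatom (A : Subgroup G) (hA : IsCoatom A) [hAn : A.Normal] :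
    commutator G ≤ A := by
  obtain ⟨g, hg⟩ : ∃ g, g ∉ A := by
    by_contra h
    push Not at h
    exact hA.1 (eq_top_iff.2 fun x _ => h x)
  have h1 : A ⊔ zpowers g = ⊤ := by
    apply hA.2
    refine lt_of_le_of_ne le_sup_left ?_
    intro h
    apply hg
    have : g ∈ A ⊔ zpowers g := Subgroup.mem_sup_right (Subgroup.mem_zpowers g)
    rwa [← h] at this
  apply commutator_le_of_sup_eq_top A (zpowers g) h1
  have : ⁅zpowers g, zpowers g⁆ = ⊥ := by
    rw [Subgroup.commutator_eq_bot_iff_le_centralizer]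
    intro x hx
    rw [Subgroup.mem_centralizer_iff]
    intro y hy
    obtain ⟨m, rfl⟩ := Subgroup.mem_zpowers_iff.1 hx
    obtain ⟨n, rfl⟩ := Subgroup.mem_zpowers_iff.1 hy
    exact (Commute.zpow_zpow_self g n m).eq
  rw [this]
  exact bot_le

theorem inf_conj_le_center_of_abelian_coatom (A : Subgroup G) (hA : IsCoatom A)
    (hcomm : ∀ x ∈ A, ∀ y ∈ A, x * y = y * x) (hNA : normalizer (A : Set G) = A) (g : G) (hg : g ∉ A) :
    A ⊓ (MulAut.conj g • A) ≤ Subgroup.center G := by
  intro z hz
  have hz1 : z ∈ A := hz.1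
  have hz2 : z ∈ MulAut.conj g • A := hz.2
  have hne : MulAut.conj g • A ≠ A := by
    intro h
    apply hg
    rw [← hNA]
    exact mem_normalizer_of_conj_eq h
  have hnotle : ¬ (MulAut.conj g • A) ≤ A := by
    intro hle
    apply hne
    apply Subgroup.eq_of_le_of_card_ge hle
    rw [card_conj_smul]
  have hsup : A ⊔ (MulAut.conj g • A) = ⊤ := by
    apply hA.2
    refine lt_of_le_of_ne le_sup_left ?_
    intro h
    exact hnotle (le_sup_right.trans h.ge)
  rw [Subgroup.mem_center_iff]
  intro x
  have h1 : A ⊔ (MulAut.conj g • A) ≤ centralizer ({z} : Set G) := by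
    apply sup_le
    · intro a ha
      rw [Subgroup.mem_centralizer_singleton_iff]
      exact hcomm a ha z hz1
    · intro a ha
      rw [Subgroup.mem_centralizer_singleton_iff]
      rw [mem_conj_smul] at ha hz2
      have := hcomm _ ha _ hz2
      calc a * z = g * ((g⁻¹ * a * g) * (g⁻¹ * z * g)) * g⁻¹ := by group
        _ = g * ((g⁻¹ * z * g) * (g⁻¹ * a * g)) * g⁻¹ := by rw [this]
        _ = z * a := by group
  have := h1 (hsup ▸ Subgroup.mem_top x)
  rw [Subgroup.mem_centralizer_singleton_iff] at this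
  exact this

/-- A coatom complemented by a normal subgroup: the complement is an elementary step. -/
theorem abelian_complement_kernel_abelian (B K : Subgroup G) (hBco : IsCoatom B)
    (hKn : K.Normal) (hKc : K.IsComplement' B) (hcop : (Nat.card B).Coprime (Nat.card K))
    (hBcomm : ∀ x ∈ B, ∀ y ∈ B, x * y = y * x) : ⁅K, K⁆ = ⊥ := by
  classical
  haveI := hKn
  have hsup : K ⊔ B = ⊤ := hKc.sup_eq_top
  have hinf : K ⊓ B = ⊥ := hKc.disjoint.eq_bot
  by_cases hKbot : K = ⊥
  · rw [hKbot]; simp
  haveI hKnt : Nontrivial K := (Subgroup.nontrivial_iff_ne_bot K).2 hKbot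
  obtain ⟨p, hp, hpd⟩ := Nat.exists_prime_and_dvd (Finite.one_lt_card (α := K)).ne'
  haveI : Fact p.Prime := ⟨hp⟩
  haveI hBsolv : Group.IsSolvable B := by
    exact isSolvable_of_comm (fun a b => Subtype.ext (hBcomm a a.2 b b.2))
  have hKtop : normalizer (K : Set G) = ⊤ := Subgroup.normalizer_eq_top_iff.2 hKn
  obtain ⟨P, hPs, hPN⟩ := exists_invariant_sylow (p := p) B K (by rw [hKtop]; exact le_top) hcop (Or.inl hBsolv)
  have hPK : P ≤ K := hPs.1
  have hPbot : P ≠ ⊥ := by
    intro h
    apply hPs.2.2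
    rw [h, Subgroup.relIndex_bot_left]
    exact hpd
  have hPB : ¬ P ≤ B := by
    intro h
    apply hPbot
    rw [eq_bot_iff, ← hinf]
    exact le_inf hPK h
  have hBP : B ⊔ P = ⊤ := by
    apply hBco.2
    refine lt_of_le_of_ne le_sup_left ?_
    intro h
    exact hPB (by rw [h]; exact le_sup_right)
  have hPn : P.Normal := by
    rw [← Subgroup.normalizer_eq_top_iff, eq_top_iff, ← hBP]
    exact sup_le hPN Subgroup.le_normalizer
  have dedekind : ∀ L : Subgroup G, L.Normal → L ≤ K → B ⊔ L = ⊤ → L = K := by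
    intro L hL hLK hBL
    apply le_antisymm hLK
    intro x hx
    haveI := hL
    obtain ⟨b, hb, l, hl, rfl⟩ := exists_mul_of_sup_eq_top' hBL x
    have hb1 : b ∈ K := by
      have : b = (b * l) * l⁻¹ := by group
      rw [this]
      exact K.mul_mem hx (K.inv_mem (hLK hl))
    have hb2 : b ∈ K ⊓ B := ⟨hb1, hb⟩
    rw [hinf, Subgroup.mem_bot] at hb2
    rw [hb2, one_mul]
    exact hl
  have hPK' : P = K := dedekind P hPn hPK hBP.symm.symm
  have hKp : IsPGroup p K := hPK' ▸ hPs.2.1
  have hnil : Group.IsNilpotent K := hKp.isNilpotent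
  have hK' : ⁅K, K⁆ ≤ B := by
    by_contra hn
    have hBK' : B ⊔ ⁅K, K⁆ = ⊤ := by
      apply hBco.2
      refine lt_of_le_of_ne le_sup_left ?_
      intro h
      exact hn (by rw [h]; exact le_sup_right)
    have h1 : ⁅K, K⁆ = K := dedekind _ inferInstance (Subgroup.commutator_le_left K K) hBK'
    have h2 := eq_bot_of_le_commutator_nilpotent K K hnil le_rfl h1.symm.le
    exact hKbot h2
  rw [eq_bot_iff, ← hinf]
  exact le_inf (Subgroup.commutator_le_left K K) hK'

theorem herstein (A : Subgroup G) (hA : IsCoatom A) [hc : IsMulCommutative A] : derivedSeries G 3 = ⊥ := by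
  classical
  have hcomm : ∀ x ∈ A, ∀ y ∈ A, x * y = y * x := fun x hx y hy => by
    have := hc.is_comm.comm ⟨x, hx⟩ ⟨y, hy⟩
    exact congrArg Subtype.val this
  have hAA : ⁅A, A⁆ = ⊥ := by
    rw [Subgroup.commutator_eq_bot_iff_le_centralizer]
    intro x hx
    rw [Subgroup.mem_centralizer_iff]
    intro y hy
    exact hcomm y hy x hx
  by_cases hAn : A.Normal
  · have h1 := commutator_le_of_normal_coatom A hA
    have h2 : derivedSeries G 2 = ⊥ := by
      rw [derivedSeries_succ, derivedSeries_one, eq_bot_iff, ← hAA]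
      exact Subgroup.commutator_mono h1 h1
    rw [derivedSeries_succ, h2]
    simp
  -- the non-normal case
  have hNA : normalizer (A : Set G) = A := by
    by_contra h
    have h1 : A < normalizer (A : Set G) := lt_of_le_of_ne Subgroup.le_normalizer (Ne.symm h)
    exact hAn (Subgroup.normalizer_eq_top_iff.1 (hA.2 _ h1))
  set Z := Subgroup.center G with hZ
  have hZA : Z ≤ A := by
    rw [← hNA]
    intro z hz
    rw [Subgroup.mem_normalizer_iff]
    intro a
    have : z * a * z⁻¹ = a := by
      have h1 := (Subgroup.mem_center_iff.1 hz) a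
      rw [← h1]; group
    rw [this]
  have hcentral := inf_conj_le_center_of_abelian_coatom A hA hcomm hNA
  -- pass to the quotient
  let f := QuotientGroup.mk' Z
  have hf : Function.Surjective f := QuotientGroup.mk'_surjective Z
  have hker : f.ker = Z := QuotientGroup.ker_mk' Z
  set B := A.map f with hB
  have hBco : IsCoatom B := isCoatom_map_of_ker_le f hf hA (by rw [hker]; exact hZA)
  have hcomap : B.comap f = A := by
    rw [hB, Subgroup.comap_map_eq_self]
    rw [hker]; exact hZA
  have hBbot : B ≠ ⊥ := by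
    intro h
    apply hAn
    have h1 : A = Z := by
      apply le_antisymm _ hZA
      intro x hx
      have h3 : f x ∈ B := ⟨x, hx, rfl⟩
      rw [h, Subgroup.mem_bot] at h3
      exact (QuotientGroup.eq_one_iff x).1 h3
    rw [h1]
    infer_instance
  have hBfrob : IsFrobeniusComplement B := by
    refine ⟨hBbot, hBco.1, ?_⟩
    intro g hg
    obtain ⟨g, rfl⟩ := hf g
    have hgA : g ∉ A := by
      intro h
      exact hg ⟨g, h, rfl⟩
    rw [eq_bot_iff]
    rintro _ ⟨⟨a, ha, rfl⟩, h2⟩
    change f a ∈ MulAut.conj (f g) • B at h2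
    rw [mem_conj_smul] at h2
    obtain ⟨b, hb, hbe⟩ := h2
    have hab : a ∈ MulAut.conj g • A := by
      rw [mem_conj_smul]
      have h3 : f (g⁻¹ * a * g * b⁻¹) = 1 := by
        simp only [map_mul, map_inv]
        rw [hbe]
        group
      have h4 : g⁻¹ * a * g * b⁻¹ ∈ A := by
        apply hZA
        rw [← hker]
        exact h3
      have h5 : g⁻¹ * a * g = (g⁻¹ * a * g * b⁻¹) * b := by group
      rw [h5]
      exact A.mul_mem h4 hb
    have hmem := hcentral g hgA ⟨ha, hab⟩
    rw [Subgroup.mem_bot]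
    have : a ∈ f.ker := by rw [hker]; exact hmem
    exact this
  have hBmod := index_modEq_one hBfrob
  have hBcop : (Nat.card B).Coprime B.index := by
    have h1 : Nat.gcd B.index (Nat.card B) = Nat.gcd 1 (Nat.card B) := hBmod.gcd_eq
    rw [Nat.gcd_one_left] at h1
    rw [Nat.Coprime, Nat.gcd_comm]
    exact h1
  have hBcomm : ∀ x ∈ B, ∀ y ∈ B, x * y = y * x := by
    rintro _ ⟨x, hx, rfl⟩ _ ⟨y, hy, rfl⟩
    rw [← map_mul, hcomm x hx y hy, map_mul]
  have hBN : normalizer (B : Set (G ⧸ Z)) ≤ centralizer (B : Set (G ⧸ Z)) := by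
    intro g hg
    have hgB : g ∈ B := by
      by_contra hgB
      have h1 := hBfrob.2.2 g hgB
      have h2 := le_normalizer_conj_of_mem_normalizer hg
      rw [h2, inf_idem] at h1
      exact hBbot h1
    rw [Subgroup.mem_centralizer_iff]
    intro x hx
    exact hBcomm x hx g hgB
  obtain ⟨K, hKn, hKc⟩ := hall_central_in_normalizer B hBcop hBN
  haveI := hKn
  have hKcard : Nat.card K = B.index := hKc.index_eq_card.symm
  have hKK : ⁅K, K⁆ = ⊥ := abelian_complement_kernel_abelian B K hBco hKn hKc (hKcard ▸ hBcop) hBcomm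
  have hBB : ⁅B, B⁆ ≤ K := by
    have : ⁅B, B⁆ = ⊥ := by
      rw [Subgroup.commutator_eq_bot_iff_le_centralizer]
      intro x hx
      rw [Subgroup.mem_centralizer_iff]
      intro y hy
      exact hBcomm y hy x hx
    rw [this]; exact bot_le
  have h1 : commutator (G ⧸ Z) ≤ K := commutator_le_of_sup_eq_top K B hKc.sup_eq_top hBB
  have h2 : derivedSeries (G ⧸ Z) 2 = ⊥ := by
    rw [derivedSeries_succ, derivedSeries_one, eq_bot_iff, ← hKK]
    exact Subgroup.commutator_mono h1 h1
  have h3 : derivedSeries G 2 ≤ Z := by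
    have h4 := map_derivedSeries_eq hf 2
    intro x hx
    rw [← hker]
    have h5 : f x ∈ (derivedSeries G 2).map f := ⟨x, hx, rfl⟩
    rw [h4, h2] at h5
    exact h5
  rw [derivedSeries_succ, eq_bot_iff]
  have hZZ : ⁅Z, Z⁆ = ⊥ := by
    rw [Subgroup.commutator_eq_bot_iff_le_centralizer]
    intro x hx
    rw [Subgroup.mem_centralizer_iff]
    intro y hy
    exact (Subgroup.mem_center_iff.1 hy x).symm
  rw [← hZZ]
  exact Subgroup.commutator_mono h3 h3

end

end CfsgLib.SS
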